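import Cfsg.Agent.H794.MonCube

/-!
# S3852, the Monster: a 3-element of `C(x) ∩ C(z)` acting on a Sylow subgroup of `C(x)` (helper131)

`h : Hyp p x z Q` as in `H794.MonCube`; `w`, `k` in `C(x) ∩ C(z)`, `w³ = 1`, `[w, k]² = z`.
-/

set_option autoImplicit false
set_option linter.unusedSectionVars false

namespace Cfsg.Agent.H131.CarM

open Subgroup Cfsg Cfsg.Agent.H794.MonCore Cfsg.Agent.H794.MonSec Cfsg.Agent.H794.MonCube

universe u

variable {G : Type u} [Group G] [Finite G] {p : ℕ} [hp : Fact p.Prime] {x z : G} {Q : Subgroup G}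

/-- a `z`-invariant Sylow subgroup of `N` has order `p³` -/
theorem card_syl (h : Hyp p x z Q) {N R : Subgroup G} (hN : Cfg x z N) (hR : Syl p z N R) : Nat.card ↥R = p ^ 3 := by
  obtain ⟨R', hR'p, -, hR'x, -, hR'c, -⟩ := h.exists_R
  have hcx : p ^ 3 ∣ Nat.card ↥(centralizer ({x} : Set G)) := by
    rw [← hR'c]
    exact Subgroup.card_dvd_of_le fun r hr => mem_centralizer_singleton_iff.2 (hR'x r hr)
  have hpB : p ∣ Nat.card ↥(N ⊓ (centralizer ({x} : Set G) ⊓ centralizer ({z} : Set G))) := by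
    rw [← h.hx, ← Nat.card_zpowers]
    refine Subgroup.card_dvd_of_le (zpowers_le.2 (mem_inf.2 ⟨hN.mem, mem_inf.2 ⟨mem_centralizer_singleton_iff.2 rfl,
      mem_centralizer_singleton_iff.2 h.zx.symm⟩⟩))
  have h1 : p ^ 4 ∣ Nat.card ↥N * Nat.card ↥(centralizer ({x} : Set G) ⊓ centralizer ({z} : Set G)) := by
    rw [← hN.card_cent, pow_succ]
    exact Nat.mul_dvd_mul hcx hpB
  have h2 : ¬ p ^ 2 ∣ Nat.card ↥(centralizer ({x} : Set G) ⊓ centralizer ({z} : Set G)) := fun h3 =>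
    h.cz (h3.trans (Subgroup.card_dvd_of_le inf_le_right))
  have hn1 : Nat.card ↥N ≠ 0 := Nat.card_pos.ne'
  have hn2 : Nat.card ↥(centralizer ({x} : Set G) ⊓ centralizer ({z} : Set G) : Subgroup G) ≠ 0 := Nat.card_pos.ne'
  rw [hp.out.pow_dvd_iff_le_factorization (mul_ne_zero hn1 hn2), Nat.factorization_mul hn1 hn2, Finsupp.add_apply] at h1
  rw [hp.out.pow_dvd_iff_le_factorization hn2] at h2
  have h3 : p ^ 3 ∣ Nat.card ↥N := by
    rw [hp.out.pow_dvd_iff_le_factorization hn1]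
    omega
  have h4 := hR.dvd 3 h3
  obtain ⟨a, ha⟩ := IsPGroup.iff_card.1 hR.isP
  rw [ha] at h4 ⊢
  have h5 := (Nat.pow_dvd_pow_iff_le_right hp.out.one_lt).1 h4
  have h6 : a ≤ 3 := by
    by_contra hlt
    exact h.h4 ((pow_dvd_pow p (by omega)).trans (ha ▸ Subgroup.card_subgroup_dvd_card R))
  rw [show a = 3 by omega]

/-- the centralizer of `z` in a `p`-group containing `x` -/
theorem cent_z (h : Hyp p x z Q) {R : Subgroup G} (hR : IsPGroup p ↥R) (hx : x ∈ R) {r : G} (hr : r ∈ R)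
    (hrz : r * z = z * r) : r ∈ zpowers x := by
  have h1 : zpowers x ≤ R ⊓ centralizer ({z} : Set G) :=
    zpowers_le.2 ⟨hx, mem_centralizer_singleton_iff.2 h.zx.symm⟩
  have h2 : IsPGroup p ↥(R ⊓ centralizer ({z} : Set G) : Subgroup G) := hR.to_le inf_le_left
  obtain ⟨a, ha⟩ := IsPGroup.iff_card.1 h2
  have h3 : a ≤ 1 := by
    by_contra hlt
    exact h.cz ((pow_dvd_pow p (by omega)).trans (ha ▸ Subgroup.card_dvd_of_le inf_le_right))
  have h4 : Nat.card ↥(R ⊓ centralizer ({z} : Set G) : Subgroup G) ≤ Nat.card ↥(zpowers x) := by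
    rw [ha, Nat.card_zpowers, h.hx]
    calc p ^ a ≤ p ^ 1 := Nat.pow_le_pow_right hp.out.pos h3
      _ = p := pow_one p
  have h5 := Subgroup.eq_of_le_of_card_ge h1 h4
  rw [h5]
  exact ⟨hr, mem_centralizer_singleton_iff.2 hrz⟩

/-- **the 3-element** -/
theorem exists_c3 (h : Hyp p x z Q) {w k : G} (hwx : w * x = x * w) (hwz : w * z = z * w) (hw3 : w ^ 3 = 1)
    (hkx : k * x = x * k) (hkz : k * z = z * k) (hy : (w * k * w⁻¹ * k⁻¹) * (w * k * w⁻¹ * k⁻¹) = z) :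
    ∃ (R : Subgroup G) (c : G), IsPGroup p ↥R ∧ Nat.card ↥R = p ^ 3 ∧ x ∈ R ∧ (∀ r ∈ R, r * x = x * r) ∧
      (∀ r ∈ R, z * r * z⁻¹ ∈ R) ∧ (∀ r ∈ R, r * z = z * r → r ∈ zpowers x) ∧ c * x = x * c ∧ c * z = z * c ∧
      (∀ r ∈ R, c * r * c⁻¹ ∈ R) ∧ (∃ a : ℕ, c ^ 3 ^ a = 1) ∧ ∃ r ∈ R, c * r * c⁻¹ ≠ r := by
  have hxo : Odd (orderOf x) := by rw [h.hx]; exact hp.out.odd_of_ne_two h.hp2
  obtain ⟨N, hN⟩ := exists_cfg h.hz hxo h.zx h.only
  obtain ⟨R, hR⟩ := hN.exists_sylow h.hz h.zx p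
  have hxp : IsPGroup p ↥(zpowers x) := IsPGroup.of_card (n := 1) (by rw [Nat.card_zpowers, h.hx, pow_one])
  have hxR := hN.mem_syl hR hxp
  have hRc := card_syl h hN hR
  have hzz : z * z = 1 := by rw [← pow_two, ← h.hz, pow_orderOf_eq_one]
  have hzi : z⁻¹ = z := inv_eq_of_mul_eq_one_left hzz
  obtain ⟨n, hn, -, c, hcx, hcz, hcR, hwc⟩ := hN.exists_fac h.hz h.zx hR hwx hwz
  obtain ⟨n', hn', -, k', hk'x, hk'z, hk'R, hkk'⟩ := hN.exists_fac h.hz h.zx hR hkx hkz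
  -- the quotient `C(x) / N`
  let D := centralizer ({x} : Set G)
  let ND : Subgroup ↥D := N.subgroupOf D
  have hND : ND.Normal := ⟨fun a ha d => hN.nor d (mem_centralizer_singleton_iff.1 d.2) a ha⟩
  let wD : ↥D := ⟨w, mem_centralizer_singleton_iff.2 hwx⟩
  let kD : ↥D := ⟨k, mem_centralizer_singleton_iff.2 hkx⟩
  let cD : ↥D := ⟨c, mem_centralizer_singleton_iff.2 hcx⟩
  let kD' : ↥D := ⟨k', mem_centralizer_singleton_iff.2 hk'x⟩
  let zD : ↥D := ⟨z, mem_centralizer_singleton_iff.2 h.zx⟩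
  let π := QuotientGroup.mk' ND
  have hπ : ∀ d : ↥D, π d = 1 ↔ (d : G) ∈ N := fun d => QuotientGroup.eq_one_iff d
  let nD : ↥D := ⟨n, mem_centralizer_singleton_iff.2 (hN.cx n hn)⟩
  let nD' : ↥D := ⟨n', mem_centralizer_singleton_iff.2 (hN.cx n' hn')⟩
  have hπc : π cD = π wD := by
    have h1 : wD = nD * cD := Subtype.ext hwc
    have h2 : π nD = 1 := (hπ nD).2 hn
    rw [h1, map_mul, h2, one_mul]
  have hπk : π kD' = π kD := by
    have h1 : kD = nD' * kD' := Subtype.ext hkk'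
    have h2 : π nD' = 1 := (hπ nD').2 hn'
    rw [h1, map_mul, h2, one_mul]
  -- the order of `c` is odd
  have hc3 : c ^ 3 ∈ N := by
    rw [show c ^ 3 = ((cD ^ 3 : ↥D) : G) from rfl, ← hπ, map_pow, hπc, ← map_pow,
      show wD ^ 3 = 1 from Subtype.ext hw3, map_one]
  have hodd : ∀ a ∈ N, Odd (orderOf a) := by
    intro a ha
    have h1 : orderOf (⟨a, ha⟩ : ↥N) ∣ Nat.card ↥N := orderOf_dvd_natCard _
    rw [Subgroup.orderOf_mk] at h1
    exact hN.odd.of_dvd_nat h1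
  obtain ⟨a, m, hm, hcm⟩ := Nat.exists_eq_pow_mul_and_not_dvd (n := orderOf c) (orderOf_pos c).ne' 3 (by norm_num)
  have hca : (c ^ m) ^ 3 ^ a = 1 := by
    rw [← pow_mul, mul_comm, ← hcm, pow_orderOf_eq_one]
  -- `[w^m, k]² = z`
  have hwm : ∀ m : ℕ, ¬ 3 ∣ m → (w ^ m * k * (w ^ m)⁻¹ * k⁻¹) * (w ^ m * k * (w ^ m)⁻¹ * k⁻¹) = z := by
    intro m hm
    have h1 : m % 3 = 1 ∨ m % 3 = 2 := by omega
    have h2 : w ^ m = w ^ (m % 3) := by
      conv_lhs => rw [← Nat.div_add_mod m 3, pow_add, pow_mul, hw3, one_pow, one_mul]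
    rcases h1 with h1 | h1
    · rw [h2, h1, pow_one]
      exact hy
    · have h3 : w ^ 2 = w⁻¹ := by
        rw [eq_inv_iff_mul_eq_one, ← pow_succ]
        exact hw3
      rw [h2, h1, h3]
      have h4 : (w⁻¹ * k * w⁻¹⁻¹ * k⁻¹) * (w⁻¹ * k * w⁻¹⁻¹ * k⁻¹) =
          w⁻¹ * ((w * k * w⁻¹ * k⁻¹) * (w * k * w⁻¹ * k⁻¹))⁻¹ * w := by group
      rw [h4, hy, hzi, mul_assoc, ← hwz, inv_mul_cancel_left]
  have hcpx : c ^ m * x = x * c ^ m := ((show Commute c x from hcx).pow_left m).eq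
  have hcpz : c ^ m * z = z * c ^ m := ((show Commute c z from hcz).pow_left m).eq
  have hcpR : ∀ r ∈ R, c ^ m * r * (c ^ m)⁻¹ ∈ R := by
    have hc' : c ∈ normalizer (R : Set G) := Transfer.FusionBasic.mem_normalizer_of_conj_mem hcR
    exact fun r hr => (mem_normalizer_iff.1 (pow_mem hc' m) r).1 hr
  refine ⟨R, c ^ m, hR.isP, hRc, hxR, fun r hr => hN.cx r (hR.le hr), hR.inv, fun r hr hrz => cent_z h hR.isP hxR hr hrz,
    hcpx, hcpz, hcpR, ⟨a, hca⟩, ?_⟩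
  by_contra hcon
  push Not at hcon
  have hcent : ∀ r ∈ R, c ^ m * r = r * c ^ m := fun r hr => mul_inv_eq_iff_eq_mul.1 (hcon r hr)
  have hk'n : k' ∈ normalizer (R : Set G) := Transfer.FusionBasic.mem_normalizer_of_conj_mem hk'R
  -- the commutator
  obtain ⟨y, hye⟩ : ∃ y, y = c ^ m * k' * (c ^ m)⁻¹ * k'⁻¹ := ⟨_, rfl⟩
  have hyR : ∀ r ∈ R, y * r = r * y := by
    intro r hr
    have h1 : k'⁻¹ * r * k' ∈ R := by
      have := (mem_normalizer_iff.1 (inv_mem hk'n) r).1 hr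
      rwa [inv_inv] at this
    have h2 : (c ^ m)⁻¹ * (k'⁻¹ * r * k') = (k'⁻¹ * r * k') * (c ^ m)⁻¹ :=
      ((show Commute (c ^ m) (k'⁻¹ * r * k') from hcent _ h1).inv_left).eq
    calc y * r = c ^ m * k' * ((c ^ m)⁻¹ * (k'⁻¹ * r * k')) * k'⁻¹ := by rw [hye]; group
      _ = c ^ m * k' * ((k'⁻¹ * r * k') * (c ^ m)⁻¹) * k'⁻¹ := by rw [h2]
      _ = (c ^ m * r) * (k' * (c ^ m)⁻¹ * k'⁻¹) := by group
      _ = (r * c ^ m) * (k' * (c ^ m)⁻¹ * k'⁻¹) := by rw [hcent r hr]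
      _ = r * y := by rw [hye]; group
  have hyz : Commute y z := by
    have h1 : Commute (c ^ m) z := hcpz
    have h2 : Commute k' z := hk'z
    rw [hye]
    exact ((h1.mul_left h2).mul_left h1.inv_left).mul_left h2.inv_left
  have hyN : y * y * z⁻¹ ∈ N := by
    let yD : ↥D := cD ^ m * kD' * (cD ^ m)⁻¹ * kD'⁻¹
    have h1 : (yD : G) = y := hye.symm
    have h2 : ((yD * yD * zD⁻¹ : ↥D) : G) = y * y * z⁻¹ := by
      rw [← h1]
      rfl
    rw [← h2, ← hπ]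
    have h3 : π yD = π (wD ^ m * kD * (wD ^ m)⁻¹ * kD⁻¹) := by
      simp only [yD, map_mul, map_inv, map_pow, hπc, hπk]
    rw [map_mul, map_mul, h3, ← map_mul, ← map_mul]
    have h4 : (wD ^ m * kD * (wD ^ m)⁻¹ * kD⁻¹) * (wD ^ m * kD * (wD ^ m)⁻¹ * kD⁻¹) * zD⁻¹ = 1 := by
      apply Subtype.ext
      show (w ^ m * k * (w ^ m)⁻¹ * k⁻¹) * (w ^ m * k * (w ^ m)⁻¹ * k⁻¹) * z⁻¹ = 1
      rw [hwm m hm, mul_inv_cancel]
    rw [h4, map_one]
  obtain ⟨j, hj⟩ := hodd _ hyN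
  have h5 : (y * y) ^ (2 * j + 1) = z := by
    have h6 : y * y = (y * y * z⁻¹) * z := by group
    have h7 : Commute (y * y * z⁻¹) z := ((hyz.mul_left hyz).mul_left (Commute.refl z).inv_left)
    rw [h6, h7.mul_pow, ← hj, pow_orderOf_eq_one, one_mul, hj, pow_succ, pow_mul, pow_two, hzz, one_pow, one_mul]
  apply h.cz
  have h8 : p ^ 2 ∣ Nat.card ↥R := by rw [hRc]; exact pow_dvd_pow p (by norm_num)
  refine h8.trans (Subgroup.card_dvd_of_le fun r hr => mem_centralizer_singleton_iff.2 ?_)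
  have h9 : Commute y r := hyR r hr
  have h10 := ((h9.mul_left h9).pow_left (2 * j + 1))
  rw [h5] at h10
  exact h10.eq.symm

end Cfsg.Agent.H131.CarM
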