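import Cfsg.Agent.H794.MonThirteen

/-!
# S3852, the Monster, `p = 13`: the element `ω = (-1 + b + c + b c) / 2` of `Co0` (helper131)

`ω` has order three, commutes with `u` (order 13), `ω b ω⁻¹ b⁻¹` has square `-1`.
-/

set_option autoImplicit false
set_option maxRecDepth 100000

namespace Cfsg.Agent.H131.CarM

open Cfsg Cfsg.Agent.SporadicA Cfsg.Agent.CoOneType.CoEval
open Cfsg.Agent.SporadicStructure.Co0Matrix hiding mk
open Cfsg.Agent.LThreeCo1.Ev
open Cfsg.Agent.CoOneType.ClosingFacts (mk mk_mul mk_eq_one neg_eq)
open Cfsg.Agent.H794.MonThirteen (ne_of_sq mk_neg s b)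
open Cfsg.Spor (Co1)

/-- code of a matrix -/
def nW : ℕ := 361882652890013533913309299221487705282516508727740877907918414009866256538612623982425593825696149590992522267165472135109964878523236666852699227108384529125959305856518924865856732101849282571476751513427612629147137187237094368060494887380885433986703733737155544271397155233537034513551835438662032979034881760360087982693515801442399827842107666008673796553179993165387981198591616086464526820619074523112519823218634151497918700962893144412599915144866748077240027596803752729044782287857326740645005033142994846672787048225732545225450407682556866128464124740994805344987506975653808016331475650170946371736920583257214572663489119901089554135476008796768627248197780236815333041064874419576808297759548699914916213989510866782663386570573179439963701478633799645437201559203465840524571163889585786941305966284746061388436704957257755109388630565050860978700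

theorem okW : Ok (dec nW) (tr (dec nW)) := ok_of_okN (by decide +kernel)

/-- the matrices -/
def M : ℕ → List (List ℤ)
  | 0 => dec nW
  | 1 => dec Cfsg.Agent.H794.MonData.nU
  | _ => dec Cfsg.Agent.H794.MonData.nB

theorem okM (i : ℕ) : Ok (M i) (tr (M i)) := by
  unfold M
  split
  · exact okW
  · exact Cfsg.Agent.H794.MonData.okU
  · exact Cfsg.Agent.H794.MonData.okB

/-- the elements -/
noncomputable def e (i : ℕ) : Co0 := Cfsg.Agent.SporadicStructure.Co0Matrix.mk (okM i)

theorem rep (i : ℕ) : Rep (e i) (M i) := rep_mk (okM i)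

theorem e_one : e 1 = Cfsg.Agent.H794.MonData.e 3 := rfl

theorem e_two : e 2 = Cfsg.Agent.H794.MonData.e 4 := rfl

/-- A word equal to `-1`. -/
theorem word_neg {w : List ℕ} (h : eqL (foldZ M w betaL) negbetaL = true) :
    (w.map e).prod = Co0Basic.negCo0 := by
  rw [foldZ_eq] at h
  exact eq_neg_of_negB rep h

theorem wu : e 0 * e 1 = e 1 * e 0 := by
  have h := eq_of_eqB (w := [0, 1]) (w' := [1, 0]) rep (by decide +kernel)
  simpa only [List.map_cons, List.map_nil, List.prod_cons, List.prod_nil, mul_one] using h

theorem w_pow : e 0 * (e 0 * e 0) = 1 := by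
  have h := eq_of_eqB (w := [0, 0, 0]) (w' := []) rep (by decide +kernel)
  simpa only [List.map_cons, List.map_nil, List.prod_cons, List.prod_nil, mul_one] using h

/-- `ω b = y b ω` with `y² = -1`: `(ω b ω² b³)² = -1` -/
theorem y_sq : (e 0 * e 2 * (e 0 * e 0) * (e 2 * (e 2 * e 2))) * (e 0 * e 2 * (e 0 * e 0) * (e 2 * (e 2 * e 2))) =
    Co0Basic.negCo0 := by
  have h := word_neg (w := [0, 2, 0, 0, 2, 2, 2, 0, 2, 0, 0, 2, 2, 2]) (by decide +kernel)
  rw [← h]
  simp only [List.map_cons, List.map_nil, List.prod_cons, List.prod_nil, mul_one, mul_assoc]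

/-- the element of order three -/
noncomputable def om : Co1 := mk (e 0)

theorem om_s : om * s = s * om := by
  have h := congrArg mk wu
  rwa [mk_mul, mk_mul] at h

theorem om_pow : om * (om * om) = 1 := by
  have h := congrArg mk w_pow
  rw [mk_mul, mk_mul] at h
  rw [show om = mk (e 0) from rfl, h]
  exact (mk_eq_one 1).2 (Or.inl rfl)

theorem b_inv : b⁻¹ = b * (b * b) := by
  rw [Cfsg.Agent.H794.MonThirteen.bb, mul_one]
  exact inv_eq_of_mul_eq_one_left Cfsg.Agent.H794.MonThirteen.bb

theorem om_inv : om⁻¹ = om * om := inv_eq_of_mul_eq_one_right om_pow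

theorem y_eq : om * b * om⁻¹ * b⁻¹ = mk (e 0 * e 2 * (e 0 * e 0) * (e 2 * (e 2 * e 2))) := by
  rw [om_inv, b_inv]
  simp only [mk_mul]
  rfl

theorem y_ne : om * b * om⁻¹ * b⁻¹ ≠ 1 := by
  rw [y_eq]
  exact ne_of_sq y_sq

theorem y_y : (om * b * om⁻¹ * b⁻¹) * (om * b * om⁻¹ * b⁻¹) = 1 := by
  rw [y_eq, ← mk_mul, y_sq, mk_neg]

end Cfsg.Agent.H131.CarM
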