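import Cfsg.Agent.H131.CarM.Abs
import Cfsg.Agent.H131.CarM.Data

/-!
# S3852, the Monster, `p = 13`: the facts about a Sylow 13-subgroup (helper131)
-/

set_option autoImplicit false
set_option maxRecDepth 100000

namespace Cfsg.Agent.H131.CarM

open Subgroup Cfsg Cfsg.Agent.H794.MonLift Cfsg.Agent.H794.MonThirteen
open Cfsg.Agent.LThreeMB (fr KChart.Cent KChart.pi KChart.chart)
open Cfsg.Agent.MonsterU Cfsg.Agent.MonsterU.Ch
open Cfsg.Agent.MonsterU.Lam2 (L2)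
open Cfsg.Agent.MonsterX
open Cfsg.Spor (Co1)

/-- the facts: `R` is a Sylow 13-subgroup of the Monster normalised by `z` and the 3-element `c` -/
def Facts {G : Type*} [Group G] (x z c : G) (R : Subgroup G) : Prop :=
  orderOf z = 2 ∧ orderOf x = 13 ∧ IsPGroup 13 ↥R ∧ Nat.card ↥R = 13 ^ 3 ∧ z * x = x * z ∧
    x ∈ R ∧ (∀ r ∈ R, r * x = x * r) ∧
    (∀ r ∈ R, z * r * z⁻¹ ∈ R) ∧ (∀ r ∈ R, r * z = z * r → r ∈ zpowers x) ∧ c * x = x * c ∧ c * z = z * c ∧
    (∀ r ∈ R, c * r * c⁻¹ ∈ R) ∧ (∃ a : ℕ, c ^ 3 ^ a = 1) ∧ ∃ r ∈ R, c * r * c⁻¹ ≠ r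

theorem facts_model : ¬ 13 ^ 4 ∣ Nat.card ↥InstData.M.G ∧ ∃ (x c : ↥InstData.M.G) (R : Subgroup ↥InstData.M.G),
    Facts x KDone.K.z c R := by
  have hfin := MFive.Row.finite_model
  have hc := MFive.Row.hc
  have h := KChart.chart KDone.lft hc
  have h13 : Nat.Prime 13 := by norm_num
  have : Fact (Nat.Prime 13) := ⟨h13⟩
  obtain ⟨x, hx, hxs⟩ := MFive.KPair.exists_order h h13 (by decide) orderOf_s
  have hx13 : x ^ 13 = 1 := by rw [← hx, pow_orderOf_eq_one]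
  have hfr : fr (KChart.pi hc x) = 1 := BpMon.Thirteen.fr_pi KDone.lft hc hx
  have hzx : KDone.K.z * (x : ↥InstData.M.G) = x * KDone.K.z := (mem_centralizer_singleton_iff.1 x.2).symm
  have only : ∀ t : ↥InstData.M.G, t * x = x * t → t * KDone.K.z = KDone.K.z * t → t * t = 1 → t = 1 ∨ t = KDone.K.z := by
    intro t htx htz htt
    by_cases ht : t = 1
    · exact Or.inl ht
    · right
      exact BpMon.Thirteen.only_inv KDone.lft hc (x := x) (t := ⟨t, mem_centralizer_singleton_iff.2 htz⟩) hx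
        (Subtype.ext htt) (fun h1 => ht (congrArg Subtype.val h1)) (Subtype.ext htx.symm)
  obtain ⟨k, hk, hkm⟩ := exists_mem h h13 (by decide) hx13 (V := V) b_mem (by rw [hxs]; exact bs)
  obtain ⟨l, hl, hlm⟩ := exists_mem h h13 (by decide) hx13 (V := V) c_mem (by rw [hxs]; exact cs)
  obtain ⟨w, hw, hwm⟩ := exists_mem h h13 (by decide) hx13 (V := ⊤) (s := om) (mem_top _) (by rw [hxs]; exact om_s)
  have hz2 : orderOf KDone.K.z = 2 := by
    have : Fact (Nat.Prime 2) := ⟨Nat.prime_two⟩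
    exact orderOf_eq_prime (by rw [pow_two]; exact h.large.z_sq) h.large.z_ne
  have h4 : ¬ 13 ^ 4 ∣ Nat.card ↥InstData.M.G := by
    rw [Cfsg.Agent.MonsterP.EquivOf.isM_model.2]
    norm_num
  have hyp : H794.MonCube.Hyp 13 (x : ↥InstData.M.G) KDone.K.z (Cfsg.Agent.H794.MonLift.lft (KChart.pi hc) x V) := by
    refine ⟨hz2, by rw [orderOf_coe, hx], by norm_num, hzx, only, isPGroup_lft h (by decide) hx13 hfr fun v hv => V_sq hv,
      fun q hq => lft_x hq, fun q hq => lft_z hq, z_mem h, ⟨k, hkm, l, hlm, not_comm h hx13 hfr only hk hl (lft_x hkm)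
        (lft_x hlm)⟩, ?_, ?_, h4⟩
    · intro h7
      have h1 := h7.trans (BpRankZero.Seven.card_cz h)
      rw [Cfsg.Agent.MonsterU.CoFrameF.card_Co1] at h1
      norm_num at h1
    · rw [Cfsg.Agent.MonsterP.EquivOf.isM_model.2]
      norm_num
  refine ⟨h4, ?_⟩
  have hwx : (w : ↥InstData.M.G) * x = x * w := lft_x hwm
  have hkx : (k : ↥InstData.M.G) * x = x * k := lft_x hkm
  have hwz : (w : ↥InstData.M.G) * KDone.K.z = KDone.K.z * w := mem_centralizer_singleton_iff.1 w.2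
  have hkz : (k : ↥InstData.M.G) * KDone.K.z = KDone.K.z * k := mem_centralizer_singleton_iff.1 k.2
  have hz4 : KDone.K.z ^ 4 = 1 := by
    rw [show 4 = 2 * 2 by norm_num, pow_mul, pow_two KDone.K.z, h.large.z_sq, one_pow]
  -- `w ^ 4`
  have hpw : KChart.pi hc (w ^ 3) = 1 := by
    rw [map_pow, hw, pow_succ, pow_two, mul_assoc]
    exact om_pow
  have hpw4 : KChart.pi hc (w ^ 4) = om := by
    rw [pow_succ, map_mul, hpw, one_mul, hw]
  have hw3 : (w : ↥InstData.M.G) ^ 3 = 1 ∨ (w : ↥InstData.M.G) ^ 3 = KDone.K.z :=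
    eq_of_pi_one h (p := 13) (by decide) hx13 hfr hpw ((show Commute (w : ↥InstData.M.G) x from hwx).pow_left 3).eq
  have hw12 : ((w : ↥InstData.M.G) ^ 4) ^ 3 = 1 := by
    rw [← pow_mul, mul_comm, pow_mul]
    rcases hw3 with h1 | h1
    · rw [h1, one_pow]
    · rw [h1, hz4]
  -- the commutator
  let y : ↥(centralizer ({KDone.K.z} : Set ↥InstData.M.G)) := w ^ 4 * k * (w ^ 4)⁻¹ * k⁻¹
  have hpy : KChart.pi hc y = om * b * om⁻¹ * b⁻¹ := by
    simp only [y, map_mul, map_inv, hpw4, hk]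
  have hyx : (y : ↥InstData.M.G) * x = x * y := by
    have h1 : Commute ((w : ↥InstData.M.G) ^ 4) x := (show Commute (w : ↥InstData.M.G) x from hwx).pow_left 4
    have h2 : Commute (k : ↥InstData.M.G) x := hkx
    exact ((h1.mul_left h2).mul_left h1.inv_left).mul_left h2.inv_left
  have hyy : (y : ↥InstData.M.G) * y = KDone.K.z := by
    have h3 : (y : ↥InstData.M.G) * y = 1 ∨ (y : ↥InstData.M.G) * y = KDone.K.z :=
      eq_of_pi_one h (p := 13) (by decide) hx13 hfr (c := y * y) (by rw [map_mul, hpy]; exact y_y)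
        ((show Commute (y : ↥InstData.M.G) x from hyx).mul_left hyx).eq
    refine h3.resolve_left fun h5 => ?_
    rcases only y hyx (mem_centralizer_singleton_iff.1 y.2) h5 with h6 | h6
    · apply y_ne
      rw [← hpy, show y = 1 from Subtype.ext h6, map_one]
    · apply y_ne
      rw [← hpy]
      refine (h.pi_eq_one y).2 ?_
      rw [h6]
      exact h.large.z_mem
  obtain ⟨R, c, h1, h2, h3, h5, h6, h7, h8, h9, h10, h11, h12⟩ := exists_c3 hyp
    (w := (w : ↥InstData.M.G) ^ 4) (k := (k : ↥InstData.M.G))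
    ((show Commute (w : ↥InstData.M.G) x from hwx).pow_left 4).eq
    ((show Commute (w : ↥InstData.M.G) KDone.K.z from hwz).pow_left 4).eq hw12 hkx hkz hyy
  exact ⟨x, c, R, hz2, hyp.hx, h1, h2, hzx, h3, h5, h6, h7, h8, h9, h10, h11, h12⟩

/-- the facts for a given Sylow 13-subgroup `P` -/
theorem thirteen_facts (P : Sylow 13 ↥InstData.M.G) : ∃ g x c : ↥InstData.M.G,
    Facts x (g * KDone.K.z * g⁻¹) c (P : Subgroup ↥InstData.M.G) := by
  have hfin := MFive.Row.finite_model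
  have : Fact (Nat.Prime 13) := ⟨by norm_num⟩
  obtain ⟨h4, x, c, R, hz2, hxo, hR1, hR2, hzx, hxR, hRx, hRz, hcz, hcx, hcz', hcR, ⟨a, ha⟩, r, hr, hrc⟩ := facts_model
  obtain ⟨S, hS⟩ := hR1.exists_le_sylow
  have hSR : (S : Subgroup ↥InstData.M.G) = R := by
    refine (Subgroup.eq_of_le_of_card_ge hS ?_).symm
    obtain ⟨n, hn⟩ := IsPGroup.iff_card.1 S.2
    rw [hn, hR2]
    refine Nat.pow_le_pow_right (by norm_num) ?_
    by_contra hlt
    exact h4 ((pow_dvd_pow 13 (by omega)).trans (hn ▸ Subgroup.card_subgroup_dvd_card (S : Subgroup ↥InstData.M.G)))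
  obtain ⟨g, hg⟩ := MulAction.exists_smul_eq ↥InstData.M.G S P
  have hmem : ∀ y : ↥InstData.M.G, y ∈ (P : Subgroup ↥InstData.M.G) ↔ g⁻¹ * y * g ∈ R := by
    intro y
    rw [← hSR, ← hg]
    constructor
    · intro hy
      obtain ⟨s, hs, e⟩ := (Subgroup.mem_smul_pointwise_iff_exists y (MulAut.conj g) (S : Subgroup ↥InstData.M.G)).1 hy
      have h1 : g * s * g⁻¹ = y := e
      rw [← h1, show g⁻¹ * (g * s * g⁻¹) * g = s by group]
      exact hs
    · intro hy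
      have h1 : MulAut.conj g (g⁻¹ * y * g) ∈ (g • S : Sylow 13 ↥InstData.M.G) :=
        Subgroup.smul_mem_pointwise_smul _ (MulAut.conj g) (S : Subgroup ↥InstData.M.G) hy
      rwa [MulAut.conj_apply, show g * (g⁻¹ * y * g) * g⁻¹ = y by group] at h1
  have ho : ∀ y : ↥InstData.M.G, orderOf (g * y * g⁻¹) = orderOf y := fun y =>
    orderOf_injective (MulAut.conj g).toMonoidHom (MulAut.conj g).injective y
  have hconj : ∀ y : ↥InstData.M.G, y = g * (g⁻¹ * y * g) * g⁻¹ := fun y => by group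
  refine ⟨g, g * x * g⁻¹, g * c * g⁻¹, by rw [ho, hz2], by rw [ho, hxo], P.2, ?_, ?_, ?_, ?_, ?_, ?_, ?_, ?_, ?_,
    ⟨a, ?_⟩, g * r * g⁻¹, ?_, ?_⟩
  · rw [← hg]
    have : Nat.card ↥((g • S : Sylow 13 ↥InstData.M.G) : Subgroup ↥InstData.M.G) = Nat.card ↥(S : Subgroup ↥InstData.M.G) :=
      Nat.card_congr (S.equivSMul g).symm.toEquiv
    rw [this, hSR, hR2]
  · calc g * KDone.K.z * g⁻¹ * (g * x * g⁻¹) = g * (KDone.K.z * x) * g⁻¹ := by group
      _ = g * (x * KDone.K.z) * g⁻¹ := by rw [hzx]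
      _ = _ := by group
  · rw [hmem, show g⁻¹ * (g * x * g⁻¹) * g = x by group]
    exact hxR
  · intro y hy
    have h1 := hRx _ ((hmem y).1 hy)
    calc y * (g * x * g⁻¹) = g * ((g⁻¹ * y * g) * x) * g⁻¹ := by group
      _ = g * (x * (g⁻¹ * y * g)) * g⁻¹ := by rw [h1]
      _ = _ := by group
  · intro y hy
    rw [hmem, show g⁻¹ * (g * KDone.K.z * g⁻¹ * y * (g * KDone.K.z * g⁻¹)⁻¹) * g =
      KDone.K.z * (g⁻¹ * y * g) * KDone.K.z⁻¹ by group]
    exact hRz _ ((hmem y).1 hy)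
  · intro y hy hyz
    obtain ⟨i, hi⟩ := mem_zpowers_iff.1 (hcz _ ((hmem y).1 hy) (by
      calc g⁻¹ * y * g * KDone.K.z = g⁻¹ * (y * (g * KDone.K.z * g⁻¹)) * g := by group
        _ = g⁻¹ * (g * KDone.K.z * g⁻¹ * y) * g := by rw [hyz]
        _ = _ := by group))
    refine mem_zpowers_iff.2 ⟨i, ?_⟩
    rw [conj_zpow, hi]
    group
  · calc g * c * g⁻¹ * (g * x * g⁻¹) = g * (c * x) * g⁻¹ := by group
      _ = g * (x * c) * g⁻¹ := by rw [hcx]
      _ = _ := by group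
  · calc g * c * g⁻¹ * (g * KDone.K.z * g⁻¹) = g * (c * KDone.K.z) * g⁻¹ := by group
      _ = g * (KDone.K.z * c) * g⁻¹ := by rw [hcz']
      _ = _ := by group
  · intro y hy
    rw [hmem, show g⁻¹ * (g * c * g⁻¹ * y * (g * c * g⁻¹)⁻¹) * g = c * (g⁻¹ * y * g) * c⁻¹ by group]
    exact hcR _ ((hmem y).1 hy)
  · rw [conj_pow, ha]
    group
  · rw [hmem, show g⁻¹ * (g * r * g⁻¹) * g = r by group]
    exact hr
  · intro h1
    apply hrc
    calc c * r * c⁻¹ = g⁻¹ * (g * c * g⁻¹ * (g * r * g⁻¹) * (g * c * g⁻¹)⁻¹) * g := by group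
      _ = g⁻¹ * (g * r * g⁻¹) * g := by rw [h1]
      _ = r := by group

end Cfsg.Agent.H131.CarM
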